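import Mathlib

/-!
# Counting nilpotent endomorphisms

The theorem of Fine and Herstein: an `n`-dimensional space over a field with `q` elements has
exactly `q ^ (n (n - 1))` nilpotent endomorphisms. The proof sorts the pairs `(A, v)` by the
cyclic sequence `v, A v, A² v, …`.
-/

set_option autoImplicit false

namespace CfsgLib.NilpotentCount

variable (K : Type*) [Field K] (V : Type*) [AddCommGroup V] [Module K V]

/-- The nilpotent endomorphisms. -/
abbrev Nil : Type _ := {A : Module.End K V // IsNilpotent A}

variable {K V}

/-- The next vector of a tuple, or zero. -/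
def next {k : ℕ} (t : Fin k → V) (i : Fin k) : V :=
  if h : (i : ℕ) + 1 < k then t ⟨(i : ℕ) + 1, h⟩ else 0

variable (K) in
/-- The nilpotent endomorphisms shifting a given tuple. -/
abbrev Fib {k : ℕ} (t : Fin k → V) : Type _ :=
  {A : Module.End K V // IsNilpotent A ∧ ∀ i, A (t i) = next t i}

theorem pow_finrank_eq_zero [FiniteDimensional K V] {A : Module.End K V} (h : IsNilpotent A) :
    A ^ Module.finrank K V = 0 := by
  obtain ⟨m, hm⟩ := h
  ext v
  have := Module.End.ker_pow_le_ker_pow_finrank A m (show v ∈ LinearMap.ker (A ^ m) by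
    rw [hm]; exact LinearMap.mem_ker.2 rfl)
  simpa using this

/-- The iterates of a vector up to the first zero one are linearly independent. -/
theorem linearIndependent_iterates (A : Module.End K V) : ∀ (k : ℕ) (v : V), (A ^ k) v = 0 →
    (∀ j, j < k → (A ^ j) v ≠ 0) →
      LinearIndependent K (fun i : Fin k => (A ^ (i : ℕ)) v) := by
  intro k
  induction k with
  | zero => intro v _ _; exact linearIndependent_empty_type
  | succ k ih =>
    intro v hk hne
    rw [Fintype.linearIndependent_iff]
    intro g hg
    have h1 : ∑ i : Fin k, g i.castSucc • (A ^ (i : ℕ)) (A v) = 0 := by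
      have := congrArg A hg
      rw [map_zero, map_sum, Fin.sum_univ_castSucc] at this
      simp only [map_smul, Fin.val_castSucc, Fin.val_last] at this
      rw [show A ((A ^ k) v) = (A ^ (k + 1)) v by rw [pow_succ']; rfl, hk, smul_zero,
        add_zero] at this
      refine Eq.trans (Finset.sum_congr rfl fun i _ => ?_) this
      congr 1
      show (A ^ (i : ℕ) * A) v = (A * A ^ (i : ℕ)) v
      rw [← pow_succ, ← pow_succ']
    have h2 := Fintype.linearIndependent_iff.1 (ih (A v)
      (by
        show (A ^ k * A) v = 0
        rw [← pow_succ]; exact hk)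
      (fun j hj => by
        show (A ^ j * A) v ≠ 0
        rw [← pow_succ]; exact hne _ (by omega))) _ h1
    intro i
    induction i using Fin.lastCases with
    | cast i => exact h2 i
    | last =>
      rw [Fin.sum_univ_castSucc, Finset.sum_eq_zero fun i _ => by rw [h2 i, zero_smul],
        zero_add, Fin.val_last] at hg
      exact (smul_eq_zero.1 hg).resolve_right (hne k (Nat.lt_succ_self k))

/-- The fibre over an independent tuple. -/
theorem card_fib [Fintype K] [FiniteDimensional K V] {k : ℕ} (t : Fin k → V)
    (ht : LinearIndependent K t) :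
    ∃ W : Submodule K V, Module.finrank K W = Module.finrank K V - k ∧
      Nat.card (Fib K t) = Fintype.card K ^ (k * (Module.finrank K V - k)) * Nat.card (Nil K W) := by
  classical
  haveI : Finite V := Module.finite_of_finite K
  set U := Submodule.span K (Set.range t) with hU
  obtain ⟨W, hc⟩ := U.exists_isCompl
  have hUk : Module.finrank K U = k := by rw [hU, finrank_span_eq_card ht, Fintype.card_fin]
  have hW : Module.finrank K W = Module.finrank K V - k := by
    have := Submodule.finrank_add_eq_of_isCompl hc
    omega
  refine ⟨W, hW, ?_⟩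
  let b : Module.Basis (Fin k) K U := Module.Basis.span ht
  have hb : ∀ i, ((b i : U) : V) = t i := fun i => congrArg Subtype.val (Module.Basis.span_apply ht i)
  have hnext : ∀ i, next t i ∈ U := by
    intro i
    unfold next
    split
    · exact Submodule.subset_span ⟨_, rfl⟩
    · exact zero_mem _
  let J : U →ₗ[K] V := U.subtype.comp (b.constr K fun i => (⟨next t i, hnext i⟩ : U))
  have hJU : ∀ u, J u ∈ U := fun u => Subtype.coe_prop _
  have hJt : ∀ i, J (b i) = next t i := fun i => by simp [J]
  let mk : (W →ₗ[K] U) × Module.End K W → Module.End K V := fun p =>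
    LinearMap.ofIsCompl hc J (U.subtype.comp p.1 + W.subtype.comp p.2)
  have mk_t : ∀ p i, mk p (t i) = next t i := fun p i => by
    rw [← hb i]
    simp only [mk, LinearMap.ofIsCompl_apply_left]
    exact hJt i
  have mk_w : ∀ p (w : W), mk p (w : V) = ((p.1 w : U) : V) + ((p.2 w : W) : V) := fun p w => by
    simp [mk]
  have mk_U : ∀ p (u : U), mk p (u : V) = J u := fun p u => by simp [mk]
  have mk_ext : ∀ (A : Module.End K V), (∀ i, A (t i) = next t i) →
      mk ((U.projectionOnto W hc).comp (A.comp W.subtype),
        (W.projectionOnto U hc.symm).comp (A.comp W.subtype)) = A := by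
    intro A hA
    refine LinearMap.ofIsCompl_eq hc (fun u => ?_) (fun w => ?_)
    · have : J = A.comp U.subtype := b.ext fun i => by
        rw [hJt, LinearMap.comp_apply, Submodule.coe_subtype, hb, hA]
      exact LinearMap.congr_fun this u
    · obtain ⟨a, c, hac, -⟩ := Submodule.existsUnique_add_of_isCompl hc (A (w : V))
      simp only [LinearMap.add_apply, LinearMap.comp_apply, Submodule.coe_subtype, ← hac]
      rw [map_add, map_add, Submodule.projectionOnto_apply_left,
        Submodule.projectionOnto_apply_of_mem_right hc c.2,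
        Submodule.projectionOnto_apply_of_mem_right hc.symm a.2,
        Submodule.projectionOnto_apply_left]
      simp
  -- the component of the powers on the complement
  have hproj : ∀ p (m : ℕ) (x : V), W.projectionOnto U hc.symm ((mk p ^ m) x) =
      (p.2 ^ m) (W.projectionOnto U hc.symm x) := by
    intro p m
    induction m with
    | zero => intro x; rfl
    | succ m ih =>
      intro x
      rw [pow_succ', Module.End.mul_apply, pow_succ', Module.End.mul_apply, ← ih x]
      generalize (mk p ^ m) x = y
      obtain ⟨a, c, hac, -⟩ := Submodule.existsUnique_add_of_isCompl hc y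
      simp only [← hac, map_add, mk_U, mk_w]
      rw [Submodule.projectionOnto_apply_of_mem_right hc.symm (hJU a),
        Submodule.projectionOnto_apply_of_mem_right hc.symm (p.1 c).2,
        Submodule.projectionOnto_apply_of_mem_right hc.symm a.2,
        Submodule.projectionOnto_apply_left, Submodule.projectionOnto_apply_left]
      simp
  have hshift : ∀ p (m : ℕ) (i : Fin k), k ≤ (i : ℕ) + m → (mk p ^ m) (t i) = 0 := by
    intro p m
    induction m with
    | zero => intro i hi; exact absurd hi (by have := i.isLt; omega)
    | succ m ih =>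
      intro i hi
      rw [pow_succ, Module.End.mul_apply, mk_t]
      unfold next
      split
      · exact ih _ (by simp only; omega)
      · exact map_zero _
  have hnil : ∀ p, IsNilpotent (mk p) ↔ IsNilpotent p.2 := by
    intro p
    constructor
    · rintro ⟨m, hm⟩
      refine ⟨m, LinearMap.ext fun w => ?_⟩
      have := hproj p m (w : V)
      rw [hm, Submodule.projectionOnto_apply_left, LinearMap.zero_apply, map_zero] at this
      exact this.symm
    · rintro ⟨m, hm⟩
      refine ⟨k + m, LinearMap.ext fun x => ?_⟩
      rw [pow_add, Module.End.mul_apply]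
      have hy := hproj p m x
      rw [hm, LinearMap.zero_apply, Submodule.projectionOnto_apply_eq_zero_iff] at hy
      have hzero : U ≤ LinearMap.ker (mk p ^ k) := Submodule.span_le.2 (by
        rintro _ ⟨i, rfl⟩
        exact hshift p k i (by omega))
      exact hzero hy
  have hinj : Function.Injective mk := by
    intro p p' h
    have e : ∀ w : W, p.1 w = p'.1 w ∧ p.2 w = p'.2 w := by
      intro w
      have h' := LinearMap.congr_fun h (w : V)
      rw [mk_w, mk_w] at h'
      have := (Submodule.prodEquivOfIsCompl U W hc).injective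
        (a₁ := (p.1 w, p.2 w)) (a₂ := (p'.1 w, p'.2 w)) (by simpa using h')
      exact ⟨congrArg Prod.fst this, congrArg Prod.snd this⟩
    exact Prod.ext (LinearMap.ext fun w => (e w).1) (LinearMap.ext fun w => (e w).2)
  let f : (W →ₗ[K] U) × Nil K W → Fib K t := fun p =>
    ⟨mk (p.1, p.2.1), (hnil _).2 p.2.2, mk_t _⟩
  have hf : Function.Bijective f := by
    refine ⟨fun p p' h => ?_, fun A => ?_⟩
    · have := hinj (congrArg Subtype.val h)
      exact Prod.ext (congrArg Prod.fst this :) (Subtype.ext (congrArg Prod.snd this :))
    · have he := mk_ext A.1 A.2.2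
      exact ⟨((U.projectionOnto W hc).comp (A.1.comp W.subtype),
        ⟨(W.projectionOnto U hc.symm).comp (A.1.comp W.subtype),
          (hnil ((U.projectionOnto W hc).comp (A.1.comp W.subtype),
            (W.projectionOnto U hc.symm).comp (A.1.comp W.subtype))).1 (by rw [he]; exact A.2.1)⟩),
        Subtype.ext he⟩
  rw [← Nat.card_congr (Equiv.ofBijective f hf), Nat.card_prod,
    Module.natCard_eq_pow_finrank (K := K), Nat.card_eq_fintype_card, Module.finrank_linearMap,
    hUk, hW, Nat.mul_comm (_ - k) k]

variable (K V) in
/-- Sorting the pairs `(A, v)` by their cyclic sequence. -/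
theorem card_nil_mul [Finite V] [Finite K] [FiniteDimensional K V] :
    Nat.card (Nil K V) * Nat.card V = ∑ k : Fin (Module.finrank K V + 1),
      ∑ᶠ t : {t : Fin k → V // LinearIndependent K t}, Nat.card (Fib K t.1) := by
  classical
  haveI : ∀ k : ℕ, Fintype {t : Fin k → V // LinearIndependent K t} := fun k => Fintype.ofFinite _
  haveI : Finite (Module.End K V) := Module.finite_of_finite K
  set n := Module.finrank K V with hn
  simp only [finsum_eq_sum_of_fintype, ← Nat.card_sigma]
  rw [← Nat.card_prod]
  refine (Nat.card_eq_of_bijective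
    (fun s : Σ k : Fin (n + 1), Σ t : {t : Fin k → V // LinearIndependent K t}, Fib K t.1 =>
      ((⟨s.2.2.1, s.2.2.2.1⟩ : Nil K V),
        if h : 0 < (s.1 : ℕ) then s.2.1.1 ⟨0, h⟩ else 0)) ⟨?_, ?_⟩).symm
  · -- the tuple is the sequence of iterates
    have key : ∀ (k : ℕ) (t : Fin k → V), LinearIndependent K t → ∀ A : Fib K t,
        ∀ j, (A.1 ^ j) (if h : 0 < k then t ⟨0, h⟩ else 0) =
          if h : j < k then t ⟨j, h⟩ else 0 := by
      intro k t ht A j
      induction j with
      | zero => simp
      | succ j ih =>
        rw [pow_succ', Module.End.mul_apply, ih]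
        by_cases h : j < k
        · rw [dif_pos h, A.2.2]
          rfl
        · rw [dif_neg h, map_zero, dif_neg (by omega)]
    rintro ⟨⟨k, hk⟩, ⟨t, ht⟩, A⟩ ⟨⟨k', hk'⟩, ⟨t', ht'⟩, A'⟩ h
    simp only [Prod.mk.injEq, Subtype.mk.injEq] at h
    obtain ⟨hA, hv⟩ := h
    have e : ∀ j, (if h : j < k then t ⟨j, h⟩ else 0) = if h : j < k' then t' ⟨j, h⟩ else 0 := by
      intro j
      rw [← key k t ht A j, ← key k' t' ht' A' j, hA, hv]
    obtain rfl : k = k' := by
      rcases Nat.lt_trichotomy k k' with h | h | h
      · have := e k
        rw [dif_neg (lt_irrefl k), dif_pos h] at this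
        exact absurd this.symm (ht'.ne_zero ⟨k, h⟩)
      · exact h
      · have := e k'
        rw [dif_pos h, dif_neg (lt_irrefl k')] at this
        exact absurd this (ht.ne_zero ⟨k', h⟩)
    obtain rfl : t = t' := funext fun i => by
      have := e i
      rwa [dif_pos i.isLt, dif_pos i.isLt] at this
    obtain rfl : A = A' := Subtype.ext hA
    rfl
  · rintro ⟨⟨A, hA⟩, v⟩
    have hex : ∃ m, (A ^ m) v = 0 := ⟨n, by rw [hn, pow_finrank_eq_zero hA]; rfl⟩
    have hle : Nat.find hex ≤ n := Nat.find_le (by rw [hn, pow_finrank_eq_zero hA]; rfl)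
    refine ⟨⟨⟨Nat.find hex, by omega⟩, ⟨fun i => (A ^ (i : ℕ)) v,
      linearIndependent_iterates A _ v (Nat.find_spec hex) fun j hj => Nat.find_min hex hj⟩,
      ⟨A, hA, fun i => ?_⟩⟩, Prod.ext rfl ?_⟩
    · show A ((A ^ (i : ℕ)) v) = next _ i
      rw [← Module.End.mul_apply, ← pow_succ']
      unfold next
      split
      · rfl
      · next h =>
        have hi : Nat.find hex = (i : ℕ) + 1 := by
          have h1 : (i : ℕ) < Nat.find hex := i.isLt
          simp only [not_lt] at h
          omega
        rw [← hi]
        exact Nat.find_spec hex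
    · simp only
      split
      · rfl
      · next h =>
        have h0 : Nat.find hex = 0 := by simpa using h
        have := Nat.find_spec hex
        rw [h0] at this
        simpa using this.symm

/-- The theorem of Fine and Herstein. -/
theorem card_nil [Fintype K] [FiniteDimensional K V] :
    Nat.card (Nil K V) =
      Fintype.card K ^ (Module.finrank K V * (Module.finrank K V - 1)) := by
  classical
  generalize hn : Module.finrank K V = n
  induction n using Nat.strong_induction_on generalizing V with
  | _ n ih =>
    haveI : Finite V := Module.finite_of_finite K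
    haveI : Finite (Module.End K V) := Module.finite_of_finite K
    rcases Nat.eq_zero_or_pos n with h0 | hpos
    · subst h0
      haveI : Subsingleton V := Module.finrank_zero_iff.1 hn
      haveI : Subsingleton (Module.End K V) := ⟨fun f g => LinearMap.ext fun v => Subsingleton.elim _ _⟩
      rw [Nat.zero_mul, pow_zero, Nat.card_eq_one_iff_unique]
      exact ⟨inferInstance, ⟨⟨0, IsNilpotent.zero⟩⟩⟩
    set q := Fintype.card K with hq
    have hq1 : 1 < q := Fintype.one_lt_card
    haveI : ∀ k : ℕ, Fintype {t : Fin k → V // LinearIndependent K t} :=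
      fun k => Fintype.ofFinite _
    let f : ℕ → ℤ := fun k => ∏ i ∈ Finset.range k, ((q : ℤ) ^ n - (q : ℤ) ^ i)
    let T : ℕ → ℤ := fun k => f k * (q : ℤ) ^ ((n - k) * n)
    have hindep : ∀ k, k ≤ n →
        (Nat.card {t : Fin k → V // LinearIndependent K t} : ℤ) = f k := by
      intro k hk
      rw [card_linearIndependent (K := K) (hn.symm ▸ hk), hn, Nat.cast_prod,
        Fin.prod_univ_eq_prod_range (fun i => ((q ^ n - q ^ i : ℕ) : ℤ)) k]
      refine Finset.prod_congr rfl fun i hi => ?_
      rw [Nat.cast_sub (Nat.pow_le_pow_right hq1.le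
        (by have := Finset.mem_range.1 hi; omega)), Nat.cast_pow, Nat.cast_pow]
    have hterm : ∀ j, j < n →
        ((∑ᶠ t : {t : Fin (j + 1) → V // LinearIndependent K t}, Nat.card (Fib K t.1) : ℕ) : ℤ) =
          T (j + 1) - T (j + 2) := by
      intro j hj
      have hc : ∀ t : {t : Fin (j + 1) → V // LinearIndependent K t},
          Nat.card (Fib K t.1) = q ^ ((n - (j + 1)) * (n - 1)) := by
        intro t
        obtain ⟨W, hW, e⟩ := card_fib t.1 t.2
        rw [e, ih (n - (j + 1)) (by omega) (V := W) (by rw [hW, hn]), hn, ← pow_add]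
        congr 1
        obtain ⟨r, rfl⟩ : ∃ r, n = j + 1 + r := ⟨n - (j + 1), by omega⟩
        rw [Nat.add_sub_cancel_left]
        rcases r with - | r
        · simp
        · rw [show j + 1 + (r + 1) - 1 = j + 1 + r by omega, Nat.add_sub_cancel]
          ring
      rw [finsum_eq_sum_of_fintype, Finset.sum_congr rfl fun t _ => hc t, Finset.sum_const,
        Finset.card_univ, smul_eq_mul, Nat.cast_mul, ← Nat.card_eq_fintype_card,
        hindep _ (by omega), Nat.cast_pow]
      simp only [T, f, Finset.prod_range_succ _ (j + 1)]
      obtain ⟨r, rfl⟩ : ∃ r, n = j + 1 + r := ⟨n - (j + 1), by omega⟩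
      rcases r with - | r
      · simp
      · rw [show j + 1 + (r + 1) - 1 = j + 1 + r by omega,
          show j + 1 + (r + 1) - (j + 1) = r + 1 by omega,
          show j + 1 + (r + 1) - (j + 2) = r by omega]
        ring
    have hmain := congrArg (fun x : ℕ => (x : ℤ)) (card_nil_mul K V)
    simp only [Nat.cast_mul, Nat.cast_sum] at hmain
    rw [Module.natCard_eq_pow_finrank (K := K) (V := V), Nat.card_eq_fintype_card (α := K), hn,
      Nat.cast_pow, Fin.sum_univ_succ] at hmain
    have h0 : ((∑ᶠ t : {t : Fin 0 → V // LinearIndependent K t}, Nat.card (Fib K t.1) : ℕ) : ℤ) =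
        Nat.card (Nil K V) := by
      let t₀ : {t : Fin 0 → V // LinearIndependent K t} :=
        ⟨Fin.elim0, linearIndependent_empty_type⟩
      haveI : Subsingleton {t : Fin 0 → V // LinearIndependent K t} :=
        ⟨fun a b => Subtype.ext (funext fun i => i.elim0)⟩
      rw [finsum_eq_sum_of_fintype, Fintype.sum_subsingleton _ t₀, Nat.cast_inj]
      exact Nat.card_congr (Equiv.subtypeEquivRight fun A =>
        ⟨fun h => h.1, fun h => ⟨h, fun i => i.elim0⟩⟩)
    have hsum : ∑ j ∈ Finset.range n, (T (j + 1) - T (j + 2)) = T 1 - T (n + 1) :=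
      Finset.sum_range_sub' (fun j => T (j + 1)) n
    have hTn : T (n + 1) = 0 := by
      simp only [T, f, Finset.prod_range_succ]
      rw [sub_self, mul_zero, zero_mul]
    rw [Fin.val_zero, h0] at hmain
    subst hn
    have hterm' : ∀ i : Fin (Module.finrank K V),
        ((∑ᶠ t : {t : Fin (i.succ : ℕ) → V // LinearIndependent K t},
          Nat.card (Fib K t.1) : ℕ) : ℤ) = T (i + 1) - T (i + 2) := fun i => hterm i i.isLt
    rw [Finset.sum_congr rfl (fun i _ => hterm' i),
      Fin.sum_univ_eq_sum_range (fun j => T (j + 1) - T (j + 2)), hsum, hTn, sub_zero] at hmain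
    simp only [T, f, Finset.prod_range_one, pow_zero] at hmain
    set n := Module.finrank K V
    have hx : ((q : ℤ) ^ n - 1) ≠ 0 := by
      have : 1 < (q : ℤ) ^ n := one_lt_pow₀ (by exact_mod_cast hq1) (by omega)
      omega
    have hgoal : ((Nat.card (Nil K V) : ℕ) : ℤ) = (q : ℤ) ^ (n * (n - 1)) := by
      refine mul_left_cancel₀ hx ?_
      rw [Nat.mul_comm n (n - 1)]
      linear_combination hmain
    exact_mod_cast hgoal

end CfsgLib.NilpotentCount
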